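-- Team project OHYP (S5992), package [BLK]: the cut (helper27).
-- Sub-package statements for `PkgBlk` of Cfsg.Agent.Lib.Helper23.OHyp.Defs.
import Mathlib
import Cfsg.Agent.Lib.Helper23.OHyp.Defs

set_option autoImplicit false
open Matrix

namespace Cfsg.Agent.Lib.Helper27.OHyp

open Cfsg.Agent.Lib.Helper23.OHyp

universe u

section defs

variable {F : Type u} [Field F] {ι : Type} [Fintype ι] [DecidableEq ι]

/-- `U` is a minimal nonzero `x`-invariant subspace. -/
def Min (x : Matrix ι ι F) (U : Submodule F (ι → F)) : Prop :=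
  Inv x U ∧ U ≠ ⊥ ∧ ∀ U' : Submodule F (ι → F), U' ≤ U → Inv x U' → U' = ⊥ ∨ U' = U

/-- No nonzero vector of `U'` is orthogonal to all of `U`. -/
def PInj (Q : (ι → F) → F) (U U' : Submodule F (ι → F)) : Prop :=
  ∀ v ∈ U', (∀ u ∈ U, QuadraticMap.polar Q u v = 0) → v = 0

end defs

/-- [NOFIX] `x` has no nonzero fixed vector in its moved space. -/
def PkgNoFix : Prop :=
  ∀ (F : Type u) [Field F] [Fintype F] (ι : Type) [Fintype ι] [DecidableEq ι]
    (Q : (ι → F) → F) (r : ℕ) (x : Matrix ι ι F), Std Q r x →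
    ∀ v ∈ movSp x, x *ᵥ v = v → v = 0

/-- [MINEX] every nonzero invariant subspace contains a minimal one. -/
def PkgMinEx : Prop :=
  ∀ (F : Type u) [Field F] (ι : Type) [Fintype ι] [DecidableEq ι]
    (x : Matrix ι ι F) (W : Submodule F (ι → F)), Inv x W → W ≠ ⊥ →
    ∃ U : Submodule F (ι → F), U ≤ W ∧ Min x U

/-- [DICH] a minimal invariant subspace is nondegenerate or totally isotropic. -/
def PkgDich : Prop :=
  ∀ (F : Type u) [Field F] [Fintype F] (ι : Type) [Fintype ι] [DecidableEq ι]
    (Q : (ι → F) → F) (r : ℕ) (x : Matrix ι ι F), Std Q r x →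
    ∀ U : Submodule F (ι → F), Min x U → Nd Q U ∨ Perp Q U U

/-- [INJ] an injective pairing bounds the dimension. -/
def PkgInj : Prop :=
  ∀ (F : Type u) [Field F] (ι : Type) [Fintype ι] [DecidableEq ι]
    (Q : (ι → F) → F), Cfsg.Geo.IsNondegenerateQuadraticForm Q →
    ∀ U U' : Submodule F (ι → F), PInj Q U U' →
      Module.finrank F U' ≤ Module.finrank F U

/-- [PSUM] two totally isotropic subspaces of the same dimension in perfect pairing span a
nondegenerate subspace of twice the dimension. -/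
def PkgPSum : Prop :=
  ∀ (F : Type u) [Field F] (ι : Type) [Fintype ι] [DecidableEq ι]
    (Q : (ι → F) → F), Cfsg.Geo.IsNondegenerateQuadraticForm Q →
    ∀ U U' : Submodule F (ι → F), Perp Q U U → Perp Q U' U' → PInj Q U U' →
      Module.finrank F U' = Module.finrank F U →
      Nd Q (U ⊔ U') ∧ Module.finrank F ↥(U ⊔ U') = 2 * Module.finrank F U

/-- [PAIR] (semisimplicity) an invariant subspace `U ≠ ⊥` of the invariant nondegenerate `W` has an
invariant partner `U' ≤ W`, `U' ≠ ⊥`, meeting the orthogonal of `U` trivially. -/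
def PkgPair : Prop :=
  ∀ (F : Type u) [Field F] [Fintype F] (ι : Type) [Fintype ι] [DecidableEq ι]
    (Q : (ι → F) → F) (r : ℕ) (x : Matrix ι ι F), Std Q r x →
    ∀ W U : Submodule F (ι → F), Inv x W → Nd Q W → U ≤ W → Inv x U → U ≠ ⊥ →
      ∃ U' : Submodule F (ι → F), U' ≤ W ∧ Inv x U' ∧ U' ≠ ⊥ ∧ PInj Q U U'

/-- [IRRDIM] minimal invariant subspaces of the moved space have dimension `i = ord_r(q)`. -/
def PkgIrrDim : Prop :=
  ∀ (F : Type u) [Field F] [Fintype F] (ι : Type) [Fintype ι] [DecidableEq ι]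
    (Q : (ι → F) → F) (r : ℕ) (x : Matrix ι ι F), Std Q r x →
    ∀ U : Submodule F (ι → F), U ≤ movSp x → Min x U →
      Module.finrank F U = ordI (Fintype.card F) r

/-- [ODDTS] an invariant nondegenerate subspace of the moved space has even dimension. -/
def PkgOddTS : Prop :=
  ∀ (F : Type u) [Field F] [Fintype F] (ι : Type) [Fintype ι] [DecidableEq ι]
    (Q : (ι → F) → F) (r : ℕ) (x : Matrix ι ι F), Std Q r x →
    ∀ U : Submodule F (ι → F), U ≤ movSp x → Inv x U → Nd Q U →
      ¬ Odd (Module.finrank F U)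

/-- [EVENMIX] `i` even: if `U` (of dimension `i`) and `U'` are invariant, totally isotropic and
`U'` is nonzero and meets the orthogonal of `U` trivially, then `U ⊔ U'` contains an invariant
subspace of dimension at most `i` with a nonsingular vector. -/
def PkgEvenMix : Prop :=
  ∀ (F : Type u) [Field F] [Fintype F] (ι : Type) [Fintype ι] [DecidableEq ι]
    (Q : (ι → F) → F) (r : ℕ) (x : Matrix ι ι F), Std Q r x →
    Even (ordI (Fintype.card F) r) →
    ∀ U U' : Submodule F (ι → F), Inv x U → Inv x U' → Perp Q U U → Perp Q U' U' →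
      Module.finrank F U = ordI (Fintype.card F) r → U' ≠ ⊥ → PInj Q U U' →
      ∃ Z : Submodule F (ι → F), Z ≤ U ⊔ U' ∧ Inv x Z ∧
        Module.finrank F Z ≤ ordI (Fintype.card F) r ∧ ∃ w ∈ Z, Q w ≠ 0

/-- [MINUS] `i` even: an invariant nondegenerate subspace of dimension `i` of the moved space is
not of plus type. -/
def PkgMinus : Prop :=
  ∀ (F : Type u) [Field F] [Fintype F] (ι : Type) [Fintype ι] [DecidableEq ι]
    (Q : (ι → F) → F) (r : ℕ) (x : Matrix ι ι F), Std Q r x →
    Even (ordI (Fintype.card F) r) →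
    ∀ D : Submodule F (ι → F), D ≤ movSp x → Inv x D → Nd Q D →
      Module.finrank F D = ordI (Fintype.card F) r → ¬ Plus Q D

end Cfsg.Agent.Lib.Helper27.OHyp
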