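-- Team project OHYP (S5992), package [BLK]: sub-packages [INJ], [PSUM] (helper27, second seat).
import Mathlib
import Cfsg.Agent.Lib.Helper27.OHyp.BlkDefs

set_option autoImplicit false
set_option linter.unusedSectionVars false
open Matrix

namespace Cfsg.Agent.Lib.Helper27.OHyp

open Cfsg.Agent.Lib.Helper23.OHyp

universe u

section

variable {F : Type u} [Field F] {ι : Type} [Fintype ι] [DecidableEq ι]

/-- The pairing map `U' → Dual U`, `v ↦ (u ↦ B(u, v))`. -/
def pairMapBlk (Q : (ι → F) → F) (hQ : Cfsg.Geo.IsNondegenerateQuadraticForm Q)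
    (U U' : Submodule F (ι → F)) : U' →ₗ[F] Module.Dual F U where
  toFun v :=
    { toFun := fun u => QuadraticMap.polar Q (u : ι → F) (v : ι → F)
      map_add' := fun a b => by
        rw [Submodule.coe_add]; exact hQ.polar_bilinear.add_left _ _ _
      map_smul' := fun c a => by
        rw [Submodule.coe_smul, RingHom.id_apply, smul_eq_mul]
        exact hQ.polar_bilinear.smul_left _ _ _ }
  map_add' a b := by
    ext u
    show QuadraticMap.polar Q (u : ι → F) ((a + b : U') : ι → F) = _
    rw [Submodule.coe_add]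
    exact hQ.polar_bilinear.add_right _ _ _
  map_smul' c a := by
    ext u
    show QuadraticMap.polar Q (u : ι → F) ((c • a : U') : ι → F) = _
    rw [Submodule.coe_smul]
    exact hQ.polar_bilinear.smul_right _ _ _

theorem pairMapBlk_apply (Q : (ι → F) → F) (hQ : Cfsg.Geo.IsNondegenerateQuadraticForm Q)
    (U U' : Submodule F (ι → F)) (v : U') (u : U) :
    pairMapBlk Q hQ U U' v u = QuadraticMap.polar Q (u : ι → F) (v : ι → F) := rfl

theorem pairMapBlk_injective (Q : (ι → F) → F) (hQ : Cfsg.Geo.IsNondegenerateQuadraticForm Q)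
    (U U' : Submodule F (ι → F)) (h : PInj Q U U') :
    Function.Injective (pairMapBlk Q hQ U U') := by
  rw [injective_iff_map_eq_zero]
  intro v hv
  have h0 : (v : ι → F) = 0 := by
    apply h _ v.2
    intro u hu
    have := LinearMap.congr_fun hv ⟨u, hu⟩
    exact this
  exact Subtype.ext h0

end

/-- [INJ] -/
theorem pkgInj : PkgInj.{u} := by
  intro F _ ι _ _ Q hQ U U' h
  have := LinearMap.finrank_le_finrank_of_injective (pairMapBlk_injective Q hQ U U' h)
  rwa [Subspace.dual_finrank_eq] at this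

/-- [PSUM] -/
theorem pkgPSum : PkgPSum.{u} := by
  intro F _ ι _ _ Q hQ U U' hU hU' h hd
  have hinj := pairMapBlk_injective Q hQ U U' h
  have hsurj : Function.Surjective (pairMapBlk Q hQ U U') := by
    apply (LinearMap.injective_iff_surjective_of_finrank_eq_finrank _).mp hinj
    rw [Subspace.dual_finrank_eq, hd]
  -- the pairing is nondegenerate on the `U` side as well
  have hU2 : ∀ u ∈ U, u ≠ 0 → ∃ v ∈ U', QuadraticMap.polar Q u v ≠ 0 := by
    intro u hu hu0
    have hne : (⟨u, hu⟩ : U) ≠ 0 := by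
      intro h0
      exact hu0 (congrArg Subtype.val h0)
    have hex : ∃ φ : Module.Dual F U, φ ⟨u, hu⟩ ≠ 0 := by
      by_contra hcon
      simp only [not_exists, not_not] at hcon
      exact hne ((Module.forall_dual_apply_eq_zero_iff F _).mp hcon)
    obtain ⟨φ, hφ⟩ := hex
    obtain ⟨v, rfl⟩ := hsurj φ
    exact ⟨v, v.2, hφ⟩
  have hdisj : U ⊓ U' = ⊥ := by
    rw [eq_bot_iff]
    intro v hv
    rw [Submodule.mem_bot]
    exact h v hv.2 (fun u hu => hU u hu v hv.1)
  refine ⟨?_, ?_⟩
  · intro w hw hw0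
    obtain ⟨u, hu, v, hv, rfl⟩ := Submodule.mem_sup.mp hw
    have key : ∃ y ∈ U ⊔ U', QuadraticMap.polar Q y (u + v) ≠ 0 := by
      by_cases hv0 : v = 0
      · have hu0 : u ≠ 0 := by
          intro h0; apply hw0; rw [h0, hv0, add_zero]
        obtain ⟨v₂, hv₂, hne⟩ := hU2 u hu hu0
        refine ⟨v₂, Submodule.mem_sup_right hv₂, ?_⟩
        rw [hQ.polar_bilinear.add_right, hU' v₂ hv₂ v hv, add_zero, QuadraticMap.polar_comm]
        exact hne
      · have hex : ∃ u₂ ∈ U, QuadraticMap.polar Q u₂ v ≠ 0 := by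
          by_contra hcon
          simp only [not_exists, not_and, not_not] at hcon
          exact hv0 (h v hv hcon)
        obtain ⟨u₂, hu₂, hne⟩ := hex
        refine ⟨u₂, Submodule.mem_sup_left hu₂, ?_⟩
        rw [hQ.polar_bilinear.add_right, hU u₂ hu₂ u hu, zero_add]
        exact hne
    obtain ⟨y, hy, hne⟩ := key
    exact ⟨⟨y, hy, hne⟩, ⟨y, hy, by rw [QuadraticMap.polar_comm]; exact hne⟩⟩
  · have := Submodule.finrank_sup_add_finrank_inf_eq U U'
    rw [hdisj, finrank_bot, add_zero, hd] at this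
    rw [this]; ring

end Cfsg.Agent.Lib.Helper27.OHyp
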