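-- Team project OHYP (S5992), package [BLK]: the count of singular vectors of a plus-type space
-- ([SINGCNT] of the cut of helper59), by a complement of a maximal totally singular subspace
-- (helper27).
import Mathlib
import Cfsg.Agent.Lib.Helper27.OHyp.PSum
import Cfsg.Agent.Lib.Helper59.OHyp.BlkDefs

set_option autoImplicit false
set_option linter.unusedSectionVars false
open Matrix

namespace Cfsg.Agent.Lib.Helper27.OHyp

open Cfsg.Agent.Lib.Helper23.OHyp

universe u v

/-- The fibres of a nonzero linear functional over a finite field. -/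
theorem fiber_card_blk {F : Type u} [Field F] [Fintype F] {S : Type v} [AddCommGroup S]
    [Module F S] [Module.Finite F S] (φ : S →ₗ[F] F) (hφ : φ ≠ 0) (c : F) :
    Nat.card {s : S // φ s = c} * Fintype.card F = Nat.card S := by
  have hex : ∃ s₁ : S, φ s₁ ≠ 0 := by
    by_contra hcon
    simp only [not_exists, not_not] at hcon
    exact hφ (LinearMap.ext hcon)
  obtain ⟨s₁, hs₁⟩ := hex
  have hsurj : Function.Surjective φ := by
    intro d
    refine ⟨(d / φ s₁) • s₁, ?_⟩
    rw [map_smul, smul_eq_mul, div_mul_cancel₀ _ hs₁]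
  obtain ⟨s₀, hs₀⟩ := hsurj c
  let e : {s : S // φ s = c} ≃ LinearMap.ker φ :=
    { toFun := fun s => ⟨s.1 - s₀, by rw [LinearMap.mem_ker, map_sub, s.2, hs₀, sub_self]⟩
      invFun := fun k => ⟨k.1 + s₀, by
        have := k.2
        rw [LinearMap.mem_ker] at this
        rw [map_add, this, hs₀, zero_add]⟩
      left_inv := fun s => by simp
      right_inv := fun k => by simp }
  rw [Nat.card_congr e, Module.natCard_eq_pow_finrank (K := F) (V := LinearMap.ker φ),
    Module.natCard_eq_pow_finrank (K := F) (V := S), Nat.card_eq_fintype_card]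
  have hrk := LinearMap.finrank_range_add_finrank_ker φ
  have hrange : LinearMap.range φ = ⊤ := LinearMap.range_eq_top.mpr hsurj
  rw [hrange, finrank_top, Module.finrank_self] at hrk
  rw [← hrk, pow_add, pow_one, mul_comm]

/-- [SINGCNT] (the statement of the cut of helper59). -/
theorem pkgSingCnt : Cfsg.Agent.Lib.Helper59.OHyp.PkgSingCnt.{u} := by
  intro F _ _ ι _ _ Q hQ h2 D j hDn hDp hDd
  classical
  obtain ⟨S, hSD, hSQ, hSd⟩ := hDp
  have hSd' : Module.finrank F S = j + 1 := by omega
  have hSB : Perp Q S S := by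
    intro a ha b hb
    unfold QuadraticMap.polar
    rw [hSQ _ (S.add_mem ha hb), hSQ a ha, hSQ b hb]; ring
  obtain ⟨C, hC⟩ := Submodule.exists_isCompl S
  obtain ⟨S', hS'⟩ : ∃ S' : Submodule F (ι → F), S' = C ⊓ D := ⟨_, rfl⟩
  have hdisj : S ⊓ S' = ⊥ := by
    rw [eq_bot_iff, hS']
    calc S ⊓ (C ⊓ D) ≤ S ⊓ C := inf_le_inf_left _ inf_le_left
      _ = ⊥ := hC.inf_eq_bot
  have hsup : S ⊔ S' = D := by
    rw [hS', ← sup_inf_assoc_of_le C hSD, hC.sup_eq_top, top_inf_eq]
  have hS'D : S' ≤ D := by rw [hS']; exact inf_le_right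
  have hS'd : Module.finrank F S' = j + 1 := by
    have := Submodule.finrank_sup_add_finrank_inf_eq S S'
    rw [hsup, hdisj, finrank_bot, add_zero, hDd, hSd'] at this
    omega
  -- no nonzero vector of `S'` is orthogonal to `S`
  have hPI : PInj Q S S' := by
    intro w hw hwS
    by_contra hw0
    have hwS₁ : w ∈ S ⊔ Submodule.span F {w} :=
      Submodule.mem_sup_right (Submodule.mem_span_singleton_self w)
    have hlt : S < S ⊔ Submodule.span F {w} := by
      refine lt_of_le_of_ne le_sup_left ?_
      intro h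
      have : w ∈ S ⊓ S' := ⟨by rw [h]; exact hwS₁, hw⟩
      rw [hdisj, Submodule.mem_bot] at this
      exact hw0 this
    have hS₁D : S ⊔ Submodule.span F {w} ≤ D :=
      sup_le hSD (by rw [Submodule.span_singleton_le_iff_mem]; exact hS'D hw)
    have hperp : ∀ s ∈ S, ∀ y ∈ S ⊔ Submodule.span F {w}, QuadraticMap.polar Q s y = 0 := by
      intro s hs y hy
      obtain ⟨a, ha, b, hb, rfl⟩ := Submodule.mem_sup.mp hy
      obtain ⟨c, rfl⟩ := Submodule.mem_span_singleton.mp hb
      rw [hQ.polar_bilinear.add_right, hQ.polar_bilinear.smul_right, hSB s hs a ha, hwS s hs]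
      ring
    have hPI' : PInj Q S' (S ⊔ Submodule.span F {w}) := by
      intro y hy hy'
      by_contra hy0
      obtain ⟨⟨d, hd, hne⟩, _⟩ := hDn y (hS₁D hy) hy0
      rw [← hsup] at hd
      obtain ⟨a, ha, b, hb, rfl⟩ := Submodule.mem_sup.mp hd
      apply hne
      rw [hQ.polar_bilinear.add_left, hperp a ha y hy, hy' b hb, add_zero]
    have h1 := pkgInj F ι Q hQ S' _ hPI'
    have h3 := Submodule.finrank_lt_finrank_of_lt hlt
    omega
  -- the decomposition `D = S ⊕ S'`
  have hbij : Function.Bijective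
      (fun p : {p : S' × S // Q ((p.2 : ι → F) + (p.1 : ι → F)) = 0} =>
        (⟨(p.1.2 : ι → F) + (p.1.1 : ι → F),
          ⟨by rw [← hsup]; exact Submodule.add_mem_sup p.1.2.2 p.1.1.2, p.2⟩⟩ :
          {y : ι → F // y ∈ D ∧ Q y = 0})) := by
    constructor
    · rintro ⟨⟨a', a⟩, ha⟩ ⟨⟨b', b⟩, hb⟩ h
      simp only [Subtype.mk.injEq] at h
      have hmem : (a : ι → F) - b ∈ S ⊓ S' := by
        refine ⟨S.sub_mem a.2 b.2, ?_⟩
        have : (a : ι → F) - b = b' - a' := by
          rw [sub_eq_sub_iff_add_eq_add, h, add_comm]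
        rw [this]; exact S'.sub_mem b'.2 a'.2
      rw [hdisj, Submodule.mem_bot, sub_eq_zero] at hmem
      have h' : (a' : ι → F) = b' := by rw [hmem] at h; exact add_left_cancel h
      exact Subtype.ext (Prod.ext (Subtype.ext h') (Subtype.ext hmem))
    · rintro ⟨y, hyD, hyQ⟩
      rw [← hsup] at hyD
      obtain ⟨a, ha, b, hb, rfl⟩ := Submodule.mem_sup.mp hyD
      exact ⟨⟨(⟨b, hb⟩, ⟨a, ha⟩), hyQ⟩, rfl⟩
  have hq : 0 < Fintype.card F := Fintype.card_pos
  have hcS : Nat.card S = Fintype.card F ^ (j + 1) := by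
    rw [Module.natCard_eq_pow_finrank (K := F) (V := S), hSd', Nat.card_eq_fintype_card]
  have hcS' : Nat.card S' = Fintype.card F ^ (j + 1) := by
    rw [Module.natCard_eq_pow_finrank (K := F) (V := S'), hS'd, Nat.card_eq_fintype_card]
  -- the fibres
  have hfib : ∀ a : S', Nat.card {b : S // Q ((b : ι → F) + (a : ι → F)) = 0} =
      if a = 0 then Fintype.card F ^ (j + 1) else Fintype.card F ^ j := by
    intro a
    by_cases ha : a = 0
    · rw [if_pos ha, ← hcS]
      apply Nat.card_congr
      refine Equiv.subtypeUnivEquiv ?_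
      intro b
      rw [ha, Submodule.coe_zero, add_zero]
      exact hSQ _ b.2
    · rw [if_neg ha]
      have hφ : pairMapBlk Q hQ S S' a ≠ 0 := by
        intro h
        apply ha
        apply pairMapBlk_injective Q hQ S S' hPI
        rw [h, map_zero]
      have hcard := fiber_card_blk (pairMapBlk Q hQ S S' a) hφ (- Q (a : ι → F))
      have hiff : ∀ b : S, Q ((b : ι → F) + (a : ι → F)) = 0 ↔
          pairMapBlk Q hQ S S' a b = - Q (a : ι → F) := by
        intro b
        rw [pairMapBlk_apply]
        unfold QuadraticMap.polar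
        rw [hSQ _ b.2]
        constructor
        · intro h; rw [h]; ring
        · intro h
          have : Q ((b : ι → F) + (a : ι → F)) =
              (Q ((b : ι → F) + (a : ι → F)) - 0 - Q (a : ι → F)) + Q (a : ι → F) := by ring
          rw [this, h]; ring
      rw [Nat.card_congr (Equiv.subtypeEquivRight hiff)]
      rw [hcS, pow_succ] at hcard
      exact Nat.eq_of_mul_eq_mul_right hq hcard
  have : Fintype S' := Fintype.ofFinite _
  rw [← Nat.card_congr (Equiv.ofBijective _ hbij),
    Nat.card_congr (Equiv.subtypeProdEquivSigmaSubtype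
      (fun (a : S') (b : S) => Q ((b : ι → F) + (a : ι → F)) = 0)),
    Nat.card_sigma, Finset.sum_congr rfl (fun a _ => hfib a),
    ← Finset.add_sum_erase Finset.univ _ (Finset.mem_univ (0 : S')), if_pos rfl]
  have hrest : ∑ a ∈ Finset.univ.erase (0 : S'),
      (if a = 0 then Fintype.card F ^ (j + 1) else Fintype.card F ^ j) =
      (Fintype.card F ^ (j + 1) - 1) * Fintype.card F ^ j := by
    rw [Finset.sum_congr rfl (fun a ha => if_neg (Finset.ne_of_mem_erase ha)), Finset.sum_const,
      Finset.card_erase_of_mem (Finset.mem_univ _), Finset.card_univ, ← Nat.card_eq_fintype_card,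
      hcS', smul_eq_mul]
  rw [hrest, Nat.sub_mul, one_mul, ← pow_add]
  have hle : Fintype.card F ^ j ≤ Fintype.card F ^ (j + 1 + j) :=
    Nat.pow_le_pow_right hq (by omega)
  have he : j + 1 + j = 2 * j + 1 := by ring
  rw [he] at hle ⊢
  omega

end Cfsg.Agent.Lib.Helper27.OHyp
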