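-- Team project OHYP (S5992), package [BLK]: the unconditional theorem `pkgBlk` (helper27),
-- assembled from the leaf packages of the cut of helper59.
import Mathlib
import Cfsg.Agent.Lib.Helper27.OHyp.SingCnt
import Cfsg.Agent.Lib.Helper59.OHyp.BlkOdd
import Cfsg.Agent.Lib.Helper77.OHyp.IrrDim
import Cfsg.Agent.Lib.Helper96.OHyp.EvenDim
import Cfsg.Agent.Lib.Helper76.OHyp.Maschke
import Cfsg.Agent.Lib.Helper76.OHyp.Cyc
import Cfsg.Agent.Lib.Helper25.OHyp.Frob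
import Cfsg.Agent.Lib.Helper25.OHyp.Ann
import Cfsg.Agent.Lib.Helper79.OHyp.Minus

set_option autoImplicit false

namespace Cfsg.Agent.Lib.Helper27.OHyp

universe u

/-- [BLK], unconditional. -/
theorem pkgBlk : Cfsg.Agent.Lib.Helper23.OHyp.PkgBlk.{u} :=
  Cfsg.Agent.Lib.Helper59.OHyp.pkgBlk_of_leaves
    Cfsg.Agent.Lib.Helper77.OHyp.pkgIrrDim
    Cfsg.Agent.Lib.Helper96.OHyp.pkgEvenDim
    Cfsg.Agent.Lib.Helper76.OHyp.pkgMaschke
    Cfsg.Agent.Lib.Helper25.OHyp.pkgFrob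
    Cfsg.Agent.Lib.Helper76.OHyp.pkgCyc
    Cfsg.Agent.Lib.Helper25.OHyp.pkgAnn
    (Cfsg.Agent.Lib.Helper79.OHyp.pkgMinus_of pkgSingCnt)

end Cfsg.Agent.Lib.Helper27.OHyp
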