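-- Team project OHYP (S5992), package [BLK]: sub-packages [NOFIX], [MINEX], [DICH] (helper27).
import Mathlib
import Cfsg.Agent.Lib.Helper27.OHyp.BlkDefs

set_option autoImplicit false
set_option linter.unusedSectionVars false
open Matrix

namespace Cfsg.Agent.Lib.Helper27.OHyp

open Cfsg.Agent.Lib.Helper23.OHyp

universe u

section

variable {F : Type u} [Field F] {ι : Type} [Fintype ι] [DecidableEq ι]

theorem polar_isom_blk {Q : (ι → F) → F} {x : Matrix ι ι F} (h : ∀ v, Q (x *ᵥ v) = Q v)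
    (u v : ι → F) : QuadraticMap.polar Q (x *ᵥ u) (x *ᵥ v) = QuadraticMap.polar Q u v := by
  unfold QuadraticMap.polar
  rw [← Matrix.mulVec_add, h, h, h]

theorem inv_mulVec_blk {x : Matrix ι ι F} {U : Submodule F (ι → F)} (h : Inv x U) {u : ι → F}
    (hu : u ∈ U) : x *ᵥ u ∈ U := by
  apply h
  rw [Submodule.mem_map]
  exact ⟨u, hu, Matrix.toLin'_apply x u⟩

theorem inv_pow_mulVec_blk {x : Matrix ι ι F} {U : Submodule F (ι → F)} (h : Inv x U) (k : ℕ)
    {u : ι → F} (hu : u ∈ U) : (x ^ k) *ᵥ u ∈ U := by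
  induction k with
  | zero => simpa using hu
  | succ k ih =>
    rw [pow_succ', ← Matrix.mulVec_mulVec]
    exact inv_mulVec_blk h ih

theorem inv_of_mulVec_blk {x : Matrix ι ι F} {U : Submodule F (ι → F)}
    (h : ∀ u ∈ U, x *ᵥ u ∈ U) : Inv x U := by
  intro v hv
  rw [Submodule.mem_map] at hv
  obtain ⟨u, hu, rfl⟩ := hv
  rw [Matrix.toLin'_apply]
  exact h u hu

theorem mul_pow_pred_blk {x : Matrix ι ι F} {r : ℕ} (hr : 0 < r) (hx : x ^ r = 1) :
    x * x ^ (r - 1) = 1 := by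
  rw [← pow_succ', Nat.sub_add_cancel hr, hx]

/-- `B(u, x v) = B(x^(r-1) u, v)`. -/
theorem polar_mulVec_right_blk {Q : (ι → F) → F} {x : Matrix ι ι F} {r : ℕ} (hr : 0 < r)
    (hx : x ^ r = 1) (h : ∀ v, Q (x *ᵥ v) = Q v) (u v : ι → F) :
    QuadraticMap.polar Q u (x *ᵥ v) = QuadraticMap.polar Q ((x ^ (r - 1)) *ᵥ u) v := by
  rw [← polar_isom_blk h ((x ^ (r - 1)) *ᵥ u) v, Matrix.mulVec_mulVec, mul_pow_pred_blk hr hx,
    Matrix.one_mulVec]

theorem polar_zero_right_blk {Q : (ι → F) → F} (hQ : Cfsg.Geo.IsNondegenerateQuadraticForm Q)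
    (u : ι → F) : QuadraticMap.polar Q u 0 = 0 := by
  have h := hQ.polar_bilinear.smul_right 0 u 0
  rw [zero_smul, zero_mul] at h
  exact h

/-- The orthogonal of `U` for the polar form, as a submodule. -/
def orthBlk (Q : (ι → F) → F) (hQ : Cfsg.Geo.IsNondegenerateQuadraticForm Q)
    (U : Submodule F (ι → F)) : Submodule F (ι → F) where
  carrier := {v | ∀ u ∈ U, QuadraticMap.polar Q u v = 0}
  add_mem' := by
    intro a b ha hb u hu
    rw [hQ.polar_bilinear.add_right, ha u hu, hb u hu, add_zero]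
  zero_mem' := by
    intro u _
    exact polar_zero_right_blk hQ u
  smul_mem' := by
    intro c a ha u hu
    rw [hQ.polar_bilinear.smul_right, ha u hu, mul_zero]

theorem mem_orthBlk {Q : (ι → F) → F} (hQ : Cfsg.Geo.IsNondegenerateQuadraticForm Q)
    (U : Submodule F (ι → F)) (v : ι → F) :
    v ∈ orthBlk Q hQ U ↔ ∀ u ∈ U, QuadraticMap.polar Q u v = 0 := Iff.rfl

theorem inv_orthBlk {Q : (ι → F) → F} (hQ : Cfsg.Geo.IsNondegenerateQuadraticForm Q)
    {x : Matrix ι ι F} {r : ℕ} (hr : 0 < r) (hx : x ^ r = 1) (h : ∀ v, Q (x *ᵥ v) = Q v)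
    {U : Submodule F (ι → F)} (hU : Inv x U) : Inv x (orthBlk Q hQ U) := by
  apply inv_of_mulVec_blk
  intro v hv u hu
  rw [polar_mulVec_right_blk hr hx h]
  exact hv _ (inv_pow_mulVec_blk hU _ hu)

end

/-- [NOFIX] -/
theorem pkgNoFix : PkgNoFix.{u} := by
  intro F _ _ ι _ _ Q r x hS v hv hfix
  obtain ⟨w, hw⟩ := hv
  have hv' : v = (x - 1) *ᵥ w := by
    rw [← hw, Matrix.sub_mulVec, Matrix.one_mulVec]
    simp [Matrix.toLin'_apply]
  have hpow : ∀ t : ℕ, (x ^ t) *ᵥ v = v := by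
    intro t
    induction t with
    | zero => simp
    | succ t ih => rw [pow_succ, ← Matrix.mulVec_mulVec, hfix, ih]
  have h1 : (∑ t ∈ Finset.range r, x ^ t) *ᵥ v = (r : F) • v := by
    rw [Matrix.sum_mulVec, Finset.sum_congr rfl (fun t _ => hpow t), Finset.sum_const,
      Finset.card_range, Nat.cast_smul_eq_nsmul]
  have h2 : (∑ t ∈ Finset.range r, x ^ t) *ᵥ v = 0 := by
    rw [hv', Matrix.mulVec_mulVec, geom_sum_mul, hS.pow, sub_self, Matrix.zero_mulVec]
  rw [h1] at h2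
  rcases smul_eq_zero.mp h2 with h | h
  · exact absurd h hS.ne
  · exact h

/-- [MINEX] -/
theorem pkgMinEx : PkgMinEx.{u} := by
  intro F _ ι _ _ x
  suffices h : ∀ n : ℕ, ∀ W : Submodule F (ι → F), Module.finrank F W = n → Inv x W → W ≠ ⊥ →
      ∃ U : Submodule F (ι → F), U ≤ W ∧ Min x U by
    intro W hi h0; exact h _ W rfl hi h0
  intro n
  induction n using Nat.strong_induction_on with
  | _ n ih =>
    intro W hn hi h0
    by_cases hmin : ∀ U' : Submodule F (ι → F), U' ≤ W → Inv x U' → U' = ⊥ ∨ U' = W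
    · exact ⟨W, le_rfl, hi, h0, hmin⟩
    · simp only [not_forall] at hmin
      obtain ⟨U', hle, hinv, hne⟩ := hmin
      rw [not_or] at hne
      have hlt : Module.finrank F U' < n := by
        rw [← hn]; exact Submodule.finrank_lt_finrank_of_lt (lt_of_le_of_ne hle hne.2)
      obtain ⟨U, hU, hUmin⟩ := ih _ hlt U' rfl hinv hne.1
      exact ⟨U, hU.trans hle, hUmin⟩

/-- [DICH] -/
theorem pkgDich : PkgDich.{u} := by
  intro F _ _ ι _ _ Q r x hS U hU
  have hQ := hS.nondeg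
  have hr : 0 < r := hS.prime.pos
  have hRinv : Inv x (U ⊓ orthBlk Q hQ U) := by
    apply inv_of_mulVec_blk
    intro v hv
    exact ⟨inv_mulVec_blk hU.1 hv.1,
      inv_mulVec_blk (inv_orthBlk hQ hr hS.pow hS.isom hU.1) hv.2⟩
  rcases hU.2.2 _ inf_le_left hRinv with h | h
  · left
    intro w hw hw0
    have hnot : w ∉ orthBlk Q hQ U := by
      intro hmem
      have : w ∈ U ⊓ orthBlk Q hQ U := ⟨hw, hmem⟩
      rw [h, Submodule.mem_bot] at this
      exact hw0 this
    rw [mem_orthBlk] at hnot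
    simp only [not_forall] at hnot
    obtain ⟨u, hu, hne⟩ := hnot
    exact ⟨⟨u, hu, hne⟩, ⟨u, hu, by rw [QuadraticMap.polar_comm]; exact hne⟩⟩
  · right
    intro u hu v hv
    have : v ∈ U ⊓ orthBlk Q hQ U := by rw [h]; exact hv
    exact this.2 u hu

end Cfsg.Agent.Lib.Helper27.OHyp
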